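import Mathlib
import Cfsg.Agent.H62.Dyadic

/-!
Strongly closed subgroups of Sylow 2-subgroups of the alternating groups of degree 6, 7 and 8, and
self-normalisation of those Sylow subgroups.
-/

set_option autoImplicit false

open Equiv

namespace Cfsg.Agent.H80.AltTwo

variable {n : ℕ}

/-- A chosen list of generators of a Sylow 2-subgroup, each a conjugate of one central involution. -/
structure Data (n k : ℕ) where
  c : Fin k → Perm (Fin n)
  a : Fin k → Perm (Fin n)
  z : Perm (Fin n)
  codes : List ℕ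

/-- A number naming a list of points. -/
def codeList : List (Fin n) → ℕ
  | [] => 0
  | x :: l => x.val + n * codeList l

theorem codeList_inj : ∀ {l l' : List (Fin n)}, l.length = l'.length →
    codeList l = codeList l' → l = l'
  | [], [], _, _ => rfl
  | x :: l, y :: l', hlen, h => by
    simp only [codeList] at h
    have h1 := congrArg (· % n) h
    simp only [Nat.add_mul_mod_self_left, Nat.mod_eq_of_lt x.isLt, Nat.mod_eq_of_lt y.isLt] at h1
    have h2 : n * codeList l = n * codeList l' := by omega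
    rw [Fin.ext h1, codeList_inj (by simpa using hlen)
      (Nat.eq_of_mul_eq_mul_left (Nat.pos_of_ne_zero fun h0 => by subst h0; exact x.elim0) h2)]

/-- A number naming a permutation. -/
def code (σ : Perm (Fin n)) : ℕ := codeList (List.ofFn σ)

theorem code_injective : Function.Injective (code (n := n)) := fun σ τ h =>
  Equiv.ext fun i => congrFun (List.ofFn_inj.1 (codeList_inj (by simp) h)) i

/-- The product of the generators selected by the bits of a number. -/
def word {k : ℕ} (c : Fin k → Perm (Fin n)) (m : ℕ) : Perm (Fin n) :=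
  (List.ofFn fun i : Fin k => if m.testBit i.val then c i else 1).prod

/-- The properties of the data that are checked by evaluation. -/
def Data.Good {k : ℕ} (D : Data n k) : Prop :=
  (List.range (2 ^ k)).map (fun m => code (word D.c m)) = D.codes ∧ D.codes.Nodup ∧
    (∀ m ∈ List.range (2 ^ k), ∀ i, code (word D.c m * D.c i) ∈ D.codes) ∧
    (∀ i, Perm.sign (D.c i) = 1) ∧ (∀ i, Perm.sign (D.a i) = 1) ∧
    (∀ m ∈ List.range (2 ^ k),
      (∀ i, code (word D.c m * D.c i) = code (D.c i * word D.c m)) →
        code (word D.c m) = code (1 : Perm (Fin n)) ∨ code (word D.c m) = code D.z) ∧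
    (∀ i, code (D.a i * D.z) = code (D.c i * D.a i))

instance {k : ℕ} (D : Data n k) : Decidable D.Good := by unfold Data.Good; infer_instance

/-- In such a group every non-trivial strongly closed subgroup of a Sylow 2-subgroup is the whole
Sylow subgroup. -/
theorem eq_of_stronglyClosed_of_data {k : ℕ} (D : Data n k) (hD : D.Good)
    (hk : ¬ 2 * 2 ^ k ∣ Nat.card (alternatingGroup (Fin n)))
    (P : Sylow 2 (alternatingGroup (Fin n))) {T : Subgroup (alternatingGroup (Fin n))}
    (hTP : T ≤ P) (hT : T ≠ ⊥)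
    (hcl : ∀ g x : alternatingGroup (Fin n), x ∈ T → g * x * g⁻¹ ∈ (P : Subgroup _) →
      g * x * g⁻¹ ∈ T) : T = (P : Subgroup _) := by
  obtain ⟨hcodes, hnd, hright, hcsign, hasign, hcen, hconj⟩ := hD
  let c' : Fin k → alternatingGroup (Fin n) := fun i => ⟨D.c i, hcsign i⟩
  let Q : Subgroup (alternatingGroup (Fin n)) := Subgroup.closure (Set.range c')
  have hQ1 : ∀ x ∈ Q, ∃ m ∈ List.range (2 ^ k), (x : Perm (Fin n)) = word D.c m := by
    intro x hx
    change x ∈ Subgroup.closure (Set.range c') at hx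
    rw [← Subgroup.mem_toSubmonoid, Subgroup.closure_toSubmonoid_of_finite] at hx
    induction hx using Submonoid.closure_induction_right with
    | one =>
      refine ⟨0, List.mem_range.2 (Nat.two_pow_pos k), ?_⟩
      simp [word, List.ofFn_const, List.prod_replicate]
    | mul_right x hx y hy ih =>
      obtain ⟨i, rfl⟩ := hy
      obtain ⟨m, hm, hxm⟩ := ih
      have h := hright m hm i
      rw [← hcodes, List.mem_map] at h
      obtain ⟨m', hm', he⟩ := h
      exact ⟨m', hm', by rw [Subgroup.coe_mul, hxm]; exact (code_injective he).symm⟩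
  have hQ2 : ∀ m, ∃ x ∈ Q, (x : Perm (Fin n)) = word D.c m := by
    intro m
    refine ⟨(List.ofFn fun i : Fin k => if m.testBit i.val then c' i else 1).prod,
      Q.list_prod_mem ?_, ?_⟩
    · intro y hy
      obtain ⟨i, rfl⟩ := List.mem_ofFn.1 hy
      split
      · exact Subgroup.subset_closure ⟨i, rfl⟩
      · exact Q.one_mem
    · rw [word, Subgroup.val_list_prod, List.map_ofFn]
      congr 2
      funext i
      by_cases h : m.testBit i.val <;> simp [h, c']
  choose f hf using hQ2
  have hQcard : Nat.card Q = 2 ^ k := by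
    rw [← hcodes] at hnd
    refine (Nat.card_eq_of_bijective (fun m : Fin (2 ^ k) => (⟨f m.val, (hf _).1⟩ : Q)) ⟨?_, ?_⟩).symm.trans
      (Nat.card_fin _)
    · intro a b h
      have h1 : word D.c a = word D.c b := by
        rw [← (hf a).2, ← (hf b).2]
        exact congrArg (fun x : Q => ((x : alternatingGroup (Fin n)) : Perm (Fin n))) h
      exact Fin.ext (List.inj_on_of_nodup_map hnd (List.mem_range.2 a.2) (List.mem_range.2 b.2)
        (congrArg code h1))
    · rintro ⟨x, hx⟩
      obtain ⟨m, hm, he⟩ := hQ1 x hx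
      exact ⟨⟨m, List.mem_range.1 hm⟩, Subtype.ext (Subtype.ext ((hf m).2.trans he.symm))⟩
  have hindex : ¬ 2 ∣ Q.index := by
    rintro ⟨m, hm⟩
    exact hk ⟨m, by rw [← Q.card_mul_index, hQcard, hm]; ring⟩
  let QS : Sylow 2 (alternatingGroup (Fin n)) := (IsPGroup.of_card hQcard).toSylow hindex
  obtain ⟨g, hg⟩ := MulAction.exists_smul_eq (alternatingGroup (Fin n)) QS P
  have hgP : ∀ x, x ∈ Q ↔ g * x * g⁻¹ ∈ (P : Subgroup (alternatingGroup (Fin n))) := by
    intro x
    rw [← hg, Sylow.coe_subgroup_smul,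
      Subgroup.mem_pointwise_smul_iff_inv_smul_mem]
    simp [MulAut.smul_def, mul_assoc, QS, IsPGroup.toSylow]
  -- the pull back to the model
  let U : Subgroup (alternatingGroup (Fin n)) := T.comap (MulAut.conj g).toMonoidHom
  have hUQ : U ≤ Q := fun x hx => (hgP x).2 (hTP hx)
  have hUcl : ∀ h x : alternatingGroup (Fin n), x ∈ U → h * x * h⁻¹ ∈ Q → h * x * h⁻¹ ∈ U := by
    intro h x hx hhx
    have h1 := hcl (g * h * g⁻¹) _ hx (by
      have := (hgP _).1 hhx
      convert this using 1
      simp [MulAut.conj_apply]; group)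
    show g * (h * x * h⁻¹) * g⁻¹ ∈ T
    convert h1 using 1
    simp [MulAut.conj_apply]; group
  have hU : U ≠ ⊥ := by
    intro h
    refine hT (Subgroup.eq_bot_iff_forall T |>.2 fun x hx => ?_)
    have : g⁻¹ * x * g ∈ U := by
      show g * (g⁻¹ * x * g) * g⁻¹ ∈ T
      simpa [mul_assoc] using hx
    rw [h, Subgroup.mem_bot] at this
    calc x = g * (g⁻¹ * x * g) * g⁻¹ := by group
      _ = 1 := by rw [this]; group
  -- it holds a central involution
  let U' : Subgroup Q := U.subgroupOf Q
  haveI : U'.Normal := ⟨fun x hx y => hUcl y.1 x.1 hx (y * x * y⁻¹).2⟩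
  haveI : Nontrivial U' := by
    rw [Subgroup.nontrivial_iff_ne_bot]
    intro h
    rw [Subgroup.subgroupOf_eq_bot, disjoint_iff, inf_eq_left.2 hUQ] at h
    exact hU h
  have hU'Z : U' ⊓ Subgroup.center Q ≠ ⊥ := by
    haveI := IsPGroup.nontrivial_iff_card (IsPGroup.of_card hQcard) |>.2
    intro h
    obtain ⟨m, hm, hUc⟩ := (((IsPGroup.of_card hQcard).to_subgroup U').nontrivial_iff_card).1
      inferInstance
    obtain ⟨b, hb, hb1⟩ := ((IsPGroup.of_card hQcard).of_equiv
      (ConjAct.toConjAct (G := Q))).exists_fixed_point_of_prime_dvd_card_of_fixed_point U'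
      (hUc ▸ dvd_pow_self 2 hm.ne') (a := 1) (fun q => by simp [smul_one])
    refine hb1 (Subtype.ext ?_).symm
    rw [Subgroup.eq_bot_iff_forall] at h
    refine h b.1 ⟨b.2, Subgroup.mem_center_iff.2 fun q => ?_⟩
    have h2 := congrArg Subtype.val (MulAction.mem_fixedPoints.1 hb (ConjAct.toConjAct q))
    exact mul_inv_eq_iff_eq_mul.1 h2
  obtain ⟨⟨u, hu⟩, hu1⟩ : ∃ u : ↥(U' ⊓ Subgroup.center Q), u ≠ 1 :=
    @exists_ne _ ((Subgroup.nontrivial_iff_ne_bot _).2 hU'Z) 1
  have huz : ((u : alternatingGroup (Fin n)) : Perm (Fin n)) = D.z := by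
    obtain ⟨m, hm, hum⟩ := hQ1 _ u.2
    rw [hum]
    refine code_injective ((hcen m hm fun i => ?_).resolve_left fun h => hu1 ?_)
    · rw [← hum]
      exact congrArg code (congrArg (fun x : Q => ((x : alternatingGroup (Fin n)) : Perm (Fin n)))
        (Subgroup.mem_center_iff.1 hu.2 ⟨c' i, Subgroup.subset_closure ⟨i, rfl⟩⟩).symm)
    · exact Subtype.ext (Subtype.ext (Subtype.ext (hum.trans (code_injective h))))
  have hQU : Q ≤ U := by
    rw [Subgroup.closure_le]
    rintro _ ⟨i, rfl⟩
    have he : (⟨D.a i, hasign i⟩ : alternatingGroup (Fin n)) * u.1 * ⟨D.a i, hasign i⟩⁻¹ = c' i := by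
      refine mul_inv_eq_iff_eq_mul.2 (Subtype.ext ?_)
      show D.a i * (u.1 : Perm (Fin n)) = D.c i * D.a i
      rw [huz, code_injective (hconj i)]
    rw [SetLike.mem_coe, ← he]
    exact hUcl _ _ hu.1 (by rw [he]; exact Subgroup.subset_closure ⟨i, rfl⟩)
  refine le_antisymm hTP fun y hy => ?_
  have h1 : g⁻¹ * y * g ∈ U := hQU ((hgP _).2 (by simpa [mul_assoc] using hy))
  have h2 : g * (g⁻¹ * y * g) * g⁻¹ ∈ T := h1
  simpa [mul_assoc] using h2

/-- A cycle of length three or more, from a list. -/
def cyc (l : List (Fin n)) : Perm (Fin n) := l.formPerm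

/-- The data for degree six. -/
def data6 : Data 6 3 where
  c := ![swap 0 1 * swap 2 3, swap 0 3 * swap 1 2, swap 0 1 * swap 4 5]
  a := ![1, cyc [1, 3, 2], swap 2 4 * swap 3 5]
  z := swap 0 1 * swap 2 3
  codes := [44790, 44605, 44115, 44300, 38305, 38130, 37640, 37815]

/-- The data for degree seven. -/
def data7 : Data 7 3 where
  c := ![swap 0 1 * swap 2 3, swap 0 3 * swap 1 2, swap 0 1 * swap 4 5]
  a := ![1, cyc [1, 3, 2], swap 2 4 * swap 3 5]
  z := swap 0 1 * swap 2 3
  codes := [800667, 800367, 799599, 799899, 786255, 785967, 785199, 785487]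

/-- The data for degree eight. -/
def data8 : Data 8 6 where
  c := ![swap 0 7 * swap 1 6 * swap 2 4 * swap 3 5, swap 0 5 * swap 1 4 * swap 2 7 * swap 3 6,
    swap 0 7 * swap 1 6 * swap 2 5 * swap 3 4, swap 0 2 * swap 1 3 * swap 4 5 * swap 6 7,
    swap 0 1 * swap 2 3 * swap 4 6 * swap 5 7, swap 0 3 * swap 1 2 * swap 4 6 * swap 5 7]
  a := ![cyc [1, 7, 3, 6, 5, 4, 2], cyc [1, 5, 7, 6, 3, 4, 2],
    cyc [1, 7, 4, 2] * swap 3 6, swap 1 2 * swap 6 7, cyc [5, 6, 7],
    cyc [1, 3, 2] * cyc [5, 6, 7]]
  z := swap 0 1 * swap 2 3 * swap 4 5 * swap 6 7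
  codes := [16434824, 371511, 4988389, 9953811, 342391, 16405704, 11788826, 6823404, 14570010, 2178540, 6850935, 11760840, 2207205, 14598675, 9926280, 5016375, 11789505, 6822270, 343980, 16404570, 4987710, 9954945, 16433235, 372645, 9924691, 5017509, 2206526, 14599809, 6852524, 11759706, 14570689, 2177406, 11788371, 6823845, 342846, 16406145, 4988844, 9953370, 16434369, 371070, 9925825, 5015934, 2207660, 14598234, 6851390, 11761281, 14569555, 2178981, 16433690, 372204, 4987255, 9954504, 343525, 16405011, 11789960, 6822711, 14571144, 2177847, 6852069, 11760147, 2206071, 14599368, 9925146, 5017068]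

theorem data6_good : data6.Good := by decide +kernel

theorem data7_good : data7.Good := by decide +kernel

theorem data8_good : data8.Good := by decide +kernel

/-- Strongly closed subgroups of a Sylow 2-subgroup of `A₆`, `A₇`, `A₈`. -/
theorem eq_of_stronglyClosed (hn : n = 6 ∨ n = 7 ∨ n = 8)
    (P : Sylow 2 (alternatingGroup (Fin n))) {T : Subgroup (alternatingGroup (Fin n))}
    (hTP : T ≤ P) (hT : T ≠ ⊥)
    (hcl : ∀ g x : alternatingGroup (Fin n), x ∈ T → g * x * g⁻¹ ∈ (P : Subgroup _) →
      g * x * g⁻¹ ∈ T) : T = (P : Subgroup _) := by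
  rcases hn with rfl | rfl | rfl
  · exact eq_of_stronglyClosed_of_data data6 data6_good
      (by rw [nat_card_alternatingGroup]; simp [Nat.factorial]) P hTP hT hcl
  · exact eq_of_stronglyClosed_of_data data7 data7_good
      (by rw [nat_card_alternatingGroup]; simp [Nat.factorial]) P hTP hT hcl
  · exact eq_of_stronglyClosed_of_data data8 data8_good
      (by rw [nat_card_alternatingGroup]; simp [Nat.factorial]) P hTP hT hcl

/-- The same facts for the even permutations of any set of 6, 7 or 8 points. -/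
theorem alt_facts {α : Type*} [Fintype α] [DecidableEq α] (hn : Fintype.card α = 6 ∨
    Fintype.card α = 7 ∨ Fintype.card α = 8) (P : Sylow 2 (alternatingGroup α)) :
    Subgroup.normalizer ((P : Subgroup (alternatingGroup α)) : Set (alternatingGroup α)) =
        (P : Subgroup (alternatingGroup α)) ∧
      ∀ T : Subgroup (alternatingGroup α), T ≤ P → T ≠ ⊥ →
        (∀ g x, x ∈ T → g * x * g⁻¹ ∈ (P : Subgroup _) → g * x * g⁻¹ ∈ T) →
          T = (P : Subgroup _) := by
  let e : alternatingGroup α ≃* alternatingGroup (Fin (Fintype.card α)) :=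
    Equiv.altCongrHom (Fintype.equivFin α)
  let P' : Sylow 2 (alternatingGroup (Fin (Fintype.card α))) :=
    P.mapSurjective (f := e.toMonoidHom) e.surjective
  have hP' : ∀ x, e x ∈ (P' : Subgroup _) ↔ x ∈ (P : Subgroup _) := fun x => by
    show e x ∈ (P : Subgroup (alternatingGroup α)).map e.toMonoidHom ↔ _
    exact Subgroup.mem_map_iff_mem e.injective
  constructor
  · refine le_antisymm (fun x hx => ?_) Subgroup.le_normalizer
    rw [← hP', ← H62.alt_sylow_two_normalizer_eq (n := Fintype.card α) (by omega) P',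
      Subgroup.mem_normalizer_iff]
    intro y
    obtain ⟨y, rfl⟩ := e.surjective y
    rw [← map_inv, ← map_mul, ← map_mul, hP', hP']
    exact Subgroup.mem_normalizer_iff.1 hx y
  · intro T hTP hT hcl
    have h := eq_of_stronglyClosed hn P' (T := T.map e.toMonoidHom)
      (Subgroup.map_mono hTP) (fun h => hT ((Subgroup.map_eq_bot_iff_of_injective _ e.injective).1 h))
      (fun g x hx hgx => by
        obtain ⟨x, hx', rfl⟩ := hx
        obtain ⟨g, rfl⟩ := e.surjective g
        simp only [MulEquiv.coe_toMonoidHom, ← map_inv, ← map_mul, hP'] at hgx ⊢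
        exact Subgroup.mem_map_of_mem _ (hcl g x hx' hgx))
    exact Subgroup.map_injective e.injective h

end Cfsg.Agent.H80.AltTwo
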