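import Cfsg.Agent.H80.MathieuLocal
import Cfsg.Agent.H93.Group
import Cfsg.Agent.H96.Simple
import Cfsg.Agent.H12.Core

/-!
The 2-fusion systems of the large Mathieu groups are simple.
-/

set_option autoImplicit false

namespace Cfsg.Agent.H80.MathieuLocal

open Cfsg MulAction Cfsg.Agent.H11 Cfsg.Agent.H12
open scoped Pointwise

variable {X : Finset GolayPt}

/-- The number of images of an octad through the fixed points. -/
theorem orbit_count {o : Finset GolayPt} (hX : X.card ≤ 2) (ho : o ∈ octads) (hXo : X ⊆ o) :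
    Nat.card (orbit (fixSub X) o) = 759 ∨ Nat.card (orbit (fixSub X) o) = 253 ∨
      Nat.card (orbit (fixSub X) o) = 77 := by
  have h := (stabilizer (fixSub X) o).card_mul_index
  rw [index_stabilizer, ← Nat.card_coe_set_eq, card_stabilizer ho hXo,
    card_alt_rest ho hXo (by omega)] at h
  have h2 := card_fixSub_mul (X := X) (by omega)
  rw [← h] at h2
  generalize Nat.card (orbit (fixSub X) o) = N at h2 ⊢
  rcases (by omega : X.card = 0 ∨ X.card = 1 ∨ X.card = 2) with e | e | e <;>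
    rw [e] at h2 <;> norm_num [Nat.factorial_succ] at h2 <;> omega

/-- Some octad holds the two distinguished points. -/
theorem exists_octad_none_zero : ∃ o ∈ octads, (none : GolayPt) ∈ o ∧ (some 0 : GolayPt) ∈ o := by
  have : (octadMasks.any fun m => m.testBit 23 && m.testBit 0) = true := by decide +kernel
  obtain ⟨m, hm, h⟩ := List.any_eq_true.1 this
  rw [Bool.and_eq_true] at h
  exact ⟨fin m, mem_octads_iff.2 ⟨m, hm, rfl⟩, (pt_mem_fin (n := 23) (by norm_num)).2 h.1,
    (pt_mem_fin (n := 0) (by norm_num)).2 h.2⟩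

/-- The 2-fusion system of the stabiliser in `M₂₄` of at most two points of an octad is simple. -/
theorem isSimple_fusion (hX : X.card ≤ 2) {o₀ : Finset GolayPt} (ho₀ : o₀ ∈ octads)
    (hXo₀ : X ⊆ o₀) (S : Sylow 2 (fixSub X)) :
    (groupFusionSystem (S : Subgroup (fixSub X))).IsSimple 2 := by
  classical
  -- an octad fixed by the Sylow subgroup
  obtain ⟨o, ho, hXo, hSo⟩ : ∃ o ∈ octads, X ⊆ o ∧
      (S : Subgroup (fixSub X)) ≤ stabilizer (fixSub X) o := by
    have hodd : ¬ 2 ∣ Nat.card (orbit (fixSub X) o₀) := by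
      rcases orbit_count hX ho₀ hXo₀ with h | h | h <;> rw [h] <;> norm_num
    obtain ⟨⟨o, g, rfl⟩, hfix⟩ := S.isPGroup'.nonempty_fixed_point_of_prime_not_dvd_card
      (orbit (fixSub X) o₀) hodd
    refine ⟨g • o₀, smul_mem_octads (mem_fixM24.1 g.2).1 ho₀, fun x hx => ?_, fun s hs => ?_⟩
    · have := Finset.smul_mem_smul_finset (a := (g : Equiv.Perm GolayPt)) (hXo₀ hx)
      rwa [Equiv.Perm.smul_def, fixes hx] at this
    · exact congrArg Subtype.val (hfix ⟨s, hs⟩)
  set K := stabilizer (fixSub X) o with hK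
  let SK : Sylow 2 K := S.subtype hSo
  have hSK : ∀ x : K, x ∈ (SK : Subgroup K) ↔ (x : fixSub X) ∈ (S : Subgroup (fixSub X)) :=
    fun x => Iff.rfl
  set N' := (rho X o).ker with hN'
  have hN'p : IsPGroup 2 N' := IsPGroup.of_card (n := 4) (by rw [card_ker_rho ho hXo]; norm_num)
  have hN'S : N' ≤ (SK : Subgroup K) := by
    obtain ⟨Q, hQ⟩ := hN'p.exists_le_sylow
    obtain ⟨k, hk⟩ := exists_smul_eq K Q SK
    intro x hx
    rw [← hk, Sylow.coe_subgroup_smul, Subgroup.mem_pointwise_smul_iff_inv_smul_mem]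
    refine hQ ?_
    have := (MonoidHom.normal_ker (rho X o)).conj_mem x hx k⁻¹
    simpa [MulAut.smul_def, -MonoidHom.mem_ker, hN'] using this
  -- the elements fixing the octad pointwise
  have hE : ∀ g : fixSub X, (g : Equiv.Perm GolayPt) ∈ fixM24 o →
      g ∈ (S : Subgroup (fixSub X)) ∧ g ∈ K := by
    intro g hg
    have hgK : g ∈ K := smul_eq_of_mem_fixM24 hg
    exact ⟨hN'S (x := ⟨g, hgK⟩) (mem_ker_rho.2 hg), hgK⟩
  have hErep : ∀ a ∈ fixM24 o, a ∈ fixSub X := fun a ha =>
    mem_fixM24.2 ⟨(mem_fixM24.1 ha).1, fun x hx => (mem_fixM24.1 ha).2 x (hXo hx)⟩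
  let ρ' : K →* alternatingGroup (Rest X o) :=
    (rho X o).codRestrict _ fun y => (range_rho ho hXo).le ⟨y, rfl⟩
  have hsurj : Function.Surjective ρ' := fun y => by
    obtain ⟨z, hz⟩ := (range_rho ho hXo).ge y.2
    exact ⟨z, Subtype.ext hz⟩
  have hker : ∀ x, ρ' x = 1 ↔ x ∈ N' := fun x =>
    ⟨fun h => congrArg Subtype.val h, fun h => Subtype.ext h⟩
  let P : Sylow 2 (alternatingGroup (Rest X o)) := SK.mapSurjective hsurj
  have hP : ∀ x, ρ' x ∈ (P : Subgroup _) ↔ x ∈ (SK : Subgroup K) := by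
    intro x
    refine ⟨fun h => ?_, fun h => Subgroup.mem_map_of_mem ρ' h⟩
    obtain ⟨y, hy, hyx⟩ := (h : ρ' x ∈ (SK : Subgroup K).map ρ')
    have : y⁻¹ * x ∈ N' := (hker _).1 (by rw [map_mul, map_inv, hyx, inv_mul_cancel])
    simpa using (SK : Subgroup K).mul_mem hy (hN'S this)
  have hrest : Fintype.card (Rest X o) = 6 ∨ Fintype.card (Rest X o) = 7 ∨
      Fintype.card (Rest X o) = 8 := by
    rw [card_rest ho hXo]; omega
  obtain ⟨hPn, hPsc⟩ := AltTwo.alt_facts hrest P
  have htwo : 2 ∣ Nat.card N' := by rw [card_ker_rho ho hXo]; norm_num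
  have hS1 : (S : Subgroup (fixSub X)) ≠ ⊥ := by
    intro h
    have h1 : N' = ⊥ := (Subgroup.eq_bot_iff_forall _).2 fun x hx => by
      have := hN'S hx
      rw [hSK, h, Subgroup.mem_bot] at this
      exact Subtype.ext this
    rw [h1, Subgroup.card_bot] at htwo
    norm_num at htwo
  -- the Sylow subgroup is its own normaliser
  have hnorm : ∀ g ∈ Subgroup.normalizer ((S : Subgroup (fixSub X)) : Set (fixSub X)),
      g ∈ (S : Subgroup (fixSub X)) := by
    intro g hg
    have hgo : (g : Equiv.Perm GolayPt) • o = o := by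
      refine Finset.eq_of_subset_of_card_le (fun y hy => ?_) (Finset.card_smul_finset _ o).ge
      obtain ⟨p, hp, rfl⟩ := Finset.mem_smul_finset.1 hy
      by_contra hgp
      rw [Equiv.Perm.smul_def] at hgp
      have hsub : (oᶜ).image (g⁻¹ : Equiv.Perm GolayPt) ⊆ o := by
        intro r hr
        obtain ⟨q, hq, rfl⟩ := Finset.mem_image.1 hr
        obtain ⟨a, ha, haq⟩ := exists_fixM24_apply ho hgp (Finset.mem_compl.1 hq)
        have h1 := (Subgroup.mem_normalizer_iff.1 (inv_mem hg) ⟨a, hErep a ha⟩).1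
          (hE ⟨a, hErep a ha⟩ ha).1
        have h2 := (apply_mem_iff_of_smul_eq (show ((g⁻¹ * ⟨a, hErep a ha⟩ * g⁻¹⁻¹ : fixSub X) :
          Equiv.Perm GolayPt) • o = o from hSo h1) p).2 hp
        simpa [haq] using h2
      have := Finset.card_le_card hsub
      rw [Finset.card_image_of_injective _ (Equiv.injective _), Finset.card_compl, ho.2] at this
      simp [GolayPt] at this
    have h1 : (⟨g, hgo⟩ : K) ∈ (SK : Subgroup K) := by
      rw [← hP, ← hPn, Subgroup.mem_normalizer_iff]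
      intro y
      obtain ⟨y, rfl⟩ := hsurj y
      rw [← map_inv, ← map_mul, ← map_mul, hP, hP]
      exact Subgroup.mem_normalizer_iff.1 hg y.1
    exact h1
  have htop : (groupFusionSystem (S : Subgroup (fixSub X))).autGroup (S : Subgroup (fixSub X)) =
      Inn (S : Subgroup (fixSub X)) := by
    rw [H93.autGroup_groupFusion S le_rfl]
    ext α
    rw [H93.mem_autInducedBy, H96.mem_inn_iff]
    constructor
    · rintro ⟨g, -, hg⟩
      refine ⟨g, hnorm g (Subgroup.mem_normalizer_iff.2 fun x => ?_), hg⟩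
      constructor
      · intro hx; rw [← hg ⟨x, hx⟩]; exact (α ⟨x, hx⟩).2
      · intro hx
        have h := hg (α.symm ⟨_, hx⟩)
        rw [MulEquiv.apply_symm_apply] at h
        have : x = (α.symm ⟨_, hx⟩ : fixSub X) := by simpa using h
        rw [this]
        exact Subtype.prop _
    · rintro ⟨g, _, hg⟩
      exact ⟨g, Subgroup.mem_top g, hg⟩
  refine H96.isSimple_of_inner_top _ 2 (H93.isSaturated_groupFusionSystem S) hS1 htop fun T hT => ?_
  by_cases hT1 : T = ⊥
  · exact Or.inl hT1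
  refine Or.inr (le_antisymm hT.1 ?_)
  have hTS : T ≤ (S : Subgroup (fixSub X)) := hT.1
  have hcl : ∀ g x : fixSub X, x ∈ T → g * x * g⁻¹ ∈ (S : Subgroup (fixSub X)) →
      g * x * g⁻¹ ∈ T := by
    intro g x hx hgx
    refine hT.2 (Subgroup.zpowers x) (Subgroup.zpowers_le.2 hx) (conjHom _ g)
      ⟨Subgroup.zpowers_le.2 (hTS hx), ?_, g, fun _ => rfl⟩ ⟨x, Subgroup.mem_zpowers x⟩
    rintro ⟨_, j, rfl⟩
    show g * x ^ j * g⁻¹ ∈ (S : Subgroup (fixSub X))
    rw [← conj_zpow]
    exact zpow_mem hgx j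
  -- it meets the elements fixing the octad pointwise
  let E : Subgroup (fixSub X) := (fixM24 o).subgroupOf (fixSub X)
  have hTE : T ⊓ E ≠ ⊥ := by
    intro h
    have hsub : T ≤ E := fun t ht => by
      refine mem_fixM24_of_commute ho (mem_fixM24.1 t.2).1 (hSo (hTS ht)) fun a ha => ?_
      let e : fixSub X := ⟨a, hErep a ha⟩
      have heS := (hE e ha).1
      have h1 : t * e * t⁻¹ * e⁻¹ ∈ T := by
        have := hcl e t⁻¹ (T.inv_mem ht)
          (Subgroup.mul_mem _ (Subgroup.mul_mem _ heS (hTS (T.inv_mem ht))) (Subgroup.inv_mem _ heS))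
        simpa [mul_assoc] using T.mul_mem ht this
      have h2 : t * e * t⁻¹ * e⁻¹ ∈ E := by
        refine E.mul_mem ?_ (E.inv_mem ha)
        have := conj_mem_fixM24 (mem_fixM24.1 t.2).1 ha
        rwa [show (t : Equiv.Perm GolayPt) • o = o from hSo (hTS ht)] at this
      have h3 : t * e * t⁻¹ * e⁻¹ = 1 := Subgroup.mem_bot.1 (h ▸ Subgroup.mem_inf.2 ⟨h1, h2⟩)
      exact congrArg Subtype.val (mul_inv_eq_iff_eq_mul.1 (mul_inv_eq_one.1 h3))
    exact hT1 (by rwa [inf_eq_left.2 hsub] at h)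
  have hET : E ≤ T := by
    obtain ⟨Y, hXY, hYo, hY⟩ := Finset.exists_subsuperset_card_eq hXo hX (by rw [ho.2]; norm_num)
    obtain ⟨a, b, hab, rfl⟩ := Finset.card_eq_two.1 hY
    have h := eq_fixM24_of_invariant ho (hYo (by simp)) (hYo (by simp)) hab
      (T := (T ⊓ E).map (fixSub X).subtype) ?_ ?_ ?_
    · intro e he
      obtain ⟨x, hx, hxe⟩ := (h.ge he : (e : Equiv.Perm GolayPt) ∈ (T ⊓ E).map (fixSub X).subtype)
      exact (Subtype.ext hxe : x = e) ▸ hx.1
    · rintro _ ⟨x, hx, rfl⟩; exact hx.2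
    · exact fun h0 => hTE ((Subgroup.map_eq_bot_iff_of_injective _ Subtype.val_injective).1 h0)
    · rintro k _ ⟨x, hx, rfl⟩
      let k' : fixSub X := ⟨k.1.1, mem_fixM24.2 ⟨(mem_fixM24.1 k.1.2).1,
        fun z hz => (mem_fixM24.1 k.1.2).2 z (hXY hz)⟩⟩
      have h2 : k' * x * k'⁻¹ ∈ E := by
        have := conj_mem_fixM24 (mem_fixM24.1 k.1.2).1 hx.2
        rwa [show (k.1 : Equiv.Perm GolayPt) • o = o from k.2] at this
      exact ⟨k' * x * k'⁻¹, ⟨hcl k' x hx.1 (hE (k' * x * k'⁻¹) h2).1, h2⟩, rfl⟩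
  -- an element outside, conjugate to one fixing the octad pointwise
  obtain ⟨t, htT, htE⟩ : ∃ t ∈ T, t ∉ E := by
    obtain ⟨e, he, he1, g, hgo, hfix⟩ : ∃ e ∈ E, e ≠ 1 ∧ ∃ g : fixSub X, g • o ≠ o ∧
        e • g • o = g • o := by
      by_contra hno
      push Not at hno
      let Y := {y : orbit (fixSub X) o // y.1 ≠ o}
      letI : MulAction E Y :=
        { smul := fun e y => ⟨⟨e.1 • y.1.1, mem_orbit_of_mem_orbit e.1 y.1.2⟩, fun h => y.2 (by
            have h1 : e.1 • o = o := (hE e.1 e.2).2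
            exact smul_left_cancel e.1 (h.trans h1.symm))⟩
          one_smul := fun y => Subtype.ext (Subtype.ext (one_smul (fixSub X) y.1.1))
          mul_smul := fun a b y => Subtype.ext (Subtype.ext (mul_smul a.1 b.1 y.1.1)) }
      have hfree : ∀ y : Y, stabilizer E y = ⊥ := by
        intro y
        rw [Subgroup.eq_bot_iff_forall]
        intro e he
        by_contra he1
        obtain ⟨g, hg⟩ := y.1.2
        have hgy : g • o = y.1.1 := hg
        refine hno e.1 e.2 (fun h => he1 (Subtype.ext h)) g (by rw [hgy]; exact y.2) ?_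
        rw [hgy]
        exact congrArg (fun z : Y => z.1.1) he
      have hcard := Nat.card_congr (MulAction.selfEquivOrbitsQuotientProd hfree)
      rw [Nat.card_prod] at hcard
      have hE16 : Nat.card E = 16 := by
        rw [← card_fixM24 ho]
        exact Nat.card_congr (Subgroup.subgroupOfEquivOfLe hErep).toEquiv
      have hY : Nat.card Y = Nat.card (orbit (fixSub X) o) - 1 := by
        haveI : Fintype (orbit (fixSub X) o) := Fintype.ofFinite _
        rw [Nat.card_eq_fintype_card, Nat.card_eq_fintype_card, Fintype.card_subtype]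
        have : (Finset.univ.filter fun y : orbit (fixSub X) o => y.1 ≠ o) =
            Finset.univ.erase ⟨o, mem_orbit_self o⟩ := by
          ext y; simp [Subtype.ext_iff]
        rw [this, Finset.card_erase_of_mem (Finset.mem_univ _), Finset.card_univ]
      rw [hY, hE16] at hcard
      rcases orbit_count hX ho hXo with h | h | h <;> omega
    let e' : fixSub X := g⁻¹ * e * g
    have he'K : e' ∈ K := by
      show (g⁻¹ * e * g) • o = o
      rw [mul_smul, mul_smul, hfix, inv_smul_smul]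
    have he'E : e' ∉ E := fun h => by
      have h1 := conj_mem_fixM24 (mem_fixM24.1 g.2).1 (show (e' : Equiv.Perm GolayPt) ∈ fixM24 o from h)
      have h2 : (g : Equiv.Perm GolayPt) * e' * (g : Equiv.Perm GolayPt)⁻¹ = e := by
        simp [e', mul_assoc]
      rw [h2] at h1
      obtain ⟨r, hr, hro⟩ : ∃ r ∈ (g : Equiv.Perm GolayPt) • o, r ∉ o := by
        by_contra hc
        push Not at hc
        exact hgo (Finset.eq_of_subset_of_card_le hc (Finset.card_smul_finset _ o).ge)
      exact he1 (Subtype.ext (eq_one_of_mem_fixM24 ho he hro ((mem_fixM24.1 h1).2 r hr)))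
    have he'2 : (⟨e', he'K⟩ : K) ^ 2 = 1 := by
      refine Subtype.ext (Subtype.ext ?_)
      have h := mul_self_of_mem_fixM24 ho (show (e : Equiv.Perm GolayPt) ∈ fixM24 o from he)
      show ((g : Equiv.Perm GolayPt)⁻¹ * e * g) ^ 2 = 1
      rw [pow_two]
      calc _ = (g : Equiv.Perm GolayPt)⁻¹ * (e * e : Equiv.Perm GolayPt) * g := by group
        _ = 1 := by rw [h]; group
    obtain ⟨Q, hQ⟩ := (IsPGroup.of_card (p := 2) (n := 1) (G := Subgroup.zpowers (⟨e', he'K⟩ : K)) (by
      haveI : Fact (Nat.Prime 2) := ⟨Nat.prime_two⟩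
      rw [Nat.card_zpowers, pow_one]
      exact orderOf_eq_prime he'2 fun h => he'E (by
        rw [show e' = 1 from congrArg Subtype.val h]; exact E.one_mem))).exists_le_sylow
    obtain ⟨k, hk⟩ := exists_smul_eq K Q SK
    have hkS : k * ⟨e', he'K⟩ * k⁻¹ ∈ (SK : Subgroup K) := by
      rw [← hk, Sylow.coe_subgroup_smul, Subgroup.mem_pointwise_smul_iff_inv_smul_mem]
      simpa [MulAut.smul_def, mul_assoc] using hQ (Subgroup.mem_zpowers _)
    refine ⟨k.1 * e' * k.1⁻¹, ?_, fun h => he'E ?_⟩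
    · have := hcl (k.1 * g⁻¹) e (hET he) (by
        have h0 : k.1 * e' * k.1⁻¹ ∈ (S : Subgroup (fixSub X)) := (hSK _).1 hkS
        simpa [e', mul_assoc] using h0)
      simpa [e', mul_assoc] using this
    · have h1 := conj_mem_fixM24 (inv_mem (mem_fixM24.1 k.1.2).1) h
      have h2 : ((k.1 : Equiv.Perm GolayPt))⁻¹ • o = o := by
        rw [inv_smul_eq_iff]; exact (show (k.1 : Equiv.Perm GolayPt) • o = o from k.2).symm
      rw [h2] at h1
      show (e' : Equiv.Perm GolayPt) ∈ fixM24 o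
      convert h1 using 1
      simp [mul_assoc]
  have htK : t ∈ K := hSo (hTS htT)
  have hU := hPsc ((T.subgroupOf K).map ρ') (Subgroup.map_mono fun x hx => hTS hx) ?_ ?_
  · intro s hs
    have hs' : ρ' ⟨s, hSo hs⟩ ∈ (T.subgroupOf K).map ρ' := hU.ge ((hP _).2 hs)
    obtain ⟨y, hy, hys⟩ := hs'
    have h1 : y⁻¹ * ⟨s, hSo hs⟩ ∈ N' := (hker _).1 (by rw [map_mul, map_inv, hys, inv_mul_cancel])
    have h2 : (y.1⁻¹ * s : fixSub X) ∈ T := hET (mem_ker_rho.1 h1)
    simpa using T.mul_mem hy h2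
  · intro h
    refine htE (mem_ker_rho.1 ((hker _).1 (Subgroup.mem_bot.1 (h ▸ ?_)) : (⟨t, htK⟩ : K) ∈ N'))
    exact Subgroup.mem_map_of_mem ρ' (x := ⟨t, htK⟩) htT
  · rintro g _ ⟨x, hx, rfl⟩ hgx
    obtain ⟨g, rfl⟩ := hsurj g
    rw [← map_inv, ← map_mul, ← map_mul] at hgx ⊢
    exact Subgroup.mem_map_of_mem ρ' (hcl g.1 x.1 hx ((hP _).1 hgx))

/-- The same for any subgroup equal to such a pointwise stabiliser. -/
theorem isSimple_fusion_of_eq {H : Subgroup (Equiv.Perm GolayPt)} (hH : H = fixSub X)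
    (hX : X.card ≤ 2) (hXo : X ⊆ {none, some 0}) (S : Sylow 2 H) :
    (groupFusionSystem (S : Subgroup H)).IsSimple 2 := by
  subst hH
  obtain ⟨o, ho, h1, h2⟩ := exists_octad_none_zero
  refine isSimple_fusion hX ho (hXo.trans ?_) S
  simp [Finset.insert_subset_iff, h1, h2]

end Cfsg.Agent.H80.MathieuLocal
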