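import Cfsg.Agent.H11.OctadStab
import Cfsg.Agent.H80.AltTwoFusion
import Cfsg.Prelude.Def_Spor_Mathieu

/-!
The stabiliser of an octad inside the pointwise stabiliser in `M₂₄` of a few points of that octad.
-/

set_option autoImplicit false

namespace Cfsg.Agent.H80.MathieuLocal

open Cfsg MulAction Cfsg.Agent.H11 Cfsg.Agent.H12
open scoped Pointwise

/-- The pointwise stabiliser of a set of points in `M₂₄`. -/
abbrev fixSub (X : Finset GolayPt) : Subgroup (Equiv.Perm GolayPt) :=
  fixM24 X

variable {X o : Finset GolayPt}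

/-- The order of the pointwise stabiliser of at most five points. -/
theorem card_fixSub_mul (hX : X.card ≤ 5) :
    Nat.card (fixSub X) * Nat.factorial 24 = 244823040 * Nat.factorial (24 - X.card) := by
  haveI := isMultiplyPretransitive_five
  have hk : IsMultiplyPretransitive M24 GolayPt X.card :=
    isMultiplyPretransitive_of_le (n := 5) hX (by simp)
  have h := hk.index_of_fixingSubgroup_mul (s := (X : Set GolayPt)) (Set.ncard_coe_finset X)
  have hc := (fixingSubgroup M24 (X : Set GolayPt)).card_mul_index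
  have e : Nat.card (fixingSubgroup M24 (X : Set GolayPt)) = Nat.card (fixSub X) :=
    Nat.card_congr
      { toFun := fun g => ⟨g.1.1, mem_fixM24.2 ⟨g.1.2, fun x hx =>
          (mem_fixingSubgroup_iff M24).1 g.2 x hx⟩⟩
        invFun := fun g => ⟨⟨g.1, (mem_fixM24.1 g.2).1⟩, (mem_fixingSubgroup_iff M24).2 fun x hx =>
          (mem_fixM24.1 g.2).2 x hx⟩
        left_inv := fun _ => rfl
        right_inv := fun _ => rfl }
  rw [show Nat.card GolayPt = 24 by simp [GolayPt]] at h
  rw [e, card_M24] at hc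
  rw [← h, ← hc]
  ring

/-- Membership of the pointwise stabiliser. -/
theorem fixes {g : fixSub X} {x : GolayPt} (hx : x ∈ X) : (g : Equiv.Perm GolayPt) x = x :=
  (mem_fixM24.1 g.2).2 x hx

/-- The points of the set outside the fixed ones. -/
abbrev Rest (X o : Finset GolayPt) : Type := {x : GolayPt // x ∈ o ∧ x ∉ X}

theorem apply_rest_iff (g : stabilizer (fixSub X) o) (x : GolayPt) :
    ((g.1 : Equiv.Perm GolayPt) x ∈ o ∧ (g.1 : Equiv.Perm GolayPt) x ∉ X) ↔ (x ∈ o ∧ x ∉ X) := by
  rw [apply_mem_iff_of_smul_eq (show (g.1 : Equiv.Perm GolayPt) • o = o from g.2)]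
  refine and_congr_right fun _ => not_congr ⟨fun h => ?_, fun h => (fixes h).symm ▸ h⟩
  have h1 := (g.1 : Equiv.Perm GolayPt).injective (fixes (g := g.1) h)
  exact h1 ▸ h

/-- Restriction to the moving part of the set. -/
def rho (X o : Finset GolayPt) : stabilizer (fixSub X) o →* Equiv.Perm (Rest X o) where
  toFun g := (g.1 : Equiv.Perm GolayPt).subtypePerm (apply_rest_iff g)
  map_one' := Equiv.ext fun _ => rfl
  map_mul' _ _ := Equiv.ext fun _ => rfl

/-- An element of the kernel fixes the set point by point. -/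
theorem mem_ker_rho {g : stabilizer (fixSub X) o} :
    g ∈ (rho X o).ker ↔ (g.1 : Equiv.Perm GolayPt) ∈ fixM24 o := by
  rw [MonoidHom.mem_ker, mem_fixM24]
  constructor
  · intro h
    refine ⟨(mem_fixM24.1 g.1.2).1, fun x hx => ?_⟩
    by_cases hxX : x ∈ X
    · exact fixes hxX
    · exact congrArg Subtype.val (Equiv.congr_fun h ⟨x, hx, hxX⟩)
  · intro h
    exact Equiv.ext fun x => Subtype.ext (h.2 x x.2.1)

/-- The stabiliser induces exactly the even permutations of the moving part. -/
theorem range_rho (ho : o ∈ octads) (hXo : X ⊆ o) :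
    (rho X o).range = alternatingGroup (Rest X o) := by
  ext τ
  rw [Equiv.Perm.mem_alternatingGroup]
  constructor
  · rintro ⟨g, rfl⟩
    let g' : stabM24 o := ⟨g.1.1, (mem_fixM24.1 g.1.2).1, g.2⟩
    have h1 : restrictHom o g' ∈ alternatingGroup ↥o := range_restrictHom_octad ho ▸ ⟨g', rfl⟩
    rw [Equiv.Perm.mem_alternatingGroup, ← Equiv.Perm.sign_ofSubtype] at h1
    rw [← Equiv.Perm.sign_ofSubtype, ← h1]
    congr 1
    refine Equiv.ext fun x => ?_
    by_cases hx : x ∈ o
    · rw [Equiv.Perm.ofSubtype_apply_of_mem (restrictHom o g') hx]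
      by_cases hxX : x ∈ X
      · rw [Equiv.Perm.ofSubtype_apply_of_not_mem _ (fun h => h.2 hxX)]
        exact (fixes hxX).symm
      · rw [Equiv.Perm.ofSubtype_apply_of_mem (p := fun x => x ∈ o ∧ x ∉ X) (rho X o g) ⟨hx, hxX⟩]
        rfl
    · rw [Equiv.Perm.ofSubtype_apply_of_not_mem (restrictHom o g') hx,
        Equiv.Perm.ofSubtype_apply_of_not_mem _ (fun h => hx h.1)]
  · intro hτ
    set σ := Equiv.Perm.ofSubtype τ with hσ
    have hσo : ∀ x, σ x ∈ o ↔ x ∈ o := fun x => by
      by_cases hx : x ∈ o ∧ x ∉ X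
      · rw [hσ, Equiv.Perm.ofSubtype_apply_of_mem τ hx]
        exact iff_of_true (τ ⟨x, hx⟩).2.1 hx.1
      · rw [hσ, Equiv.Perm.ofSubtype_apply_of_not_mem τ hx]
    have h1 : σ.subtypePerm hσo ∈ alternatingGroup ↥o := by
      rw [Equiv.Perm.mem_alternatingGroup]
      convert (Equiv.Perm.sign_subtypePerm σ hσo fun x hx => ?_).trans
        ((Equiv.Perm.sign_ofSubtype τ).trans hτ) using 3
      by_contra hxo
      exact hx (Equiv.Perm.ofSubtype_apply_of_not_mem τ fun h => hxo h.1)
    rw [← range_restrictHom_octad ho] at h1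
    obtain ⟨g, hg⟩ := h1
    have hg' : ∀ x ∈ o, (g : Equiv.Perm GolayPt) x = σ x := fun x hx =>
      congrArg Subtype.val (Equiv.congr_fun hg ⟨x, hx⟩)
    refine ⟨⟨⟨g.1, mem_fixM24.2 ⟨g.2.1, fun x hx => ?_⟩⟩, g.2.2⟩, ?_⟩
    · rw [hg' x (hXo hx), hσ, Equiv.Perm.ofSubtype_apply_of_not_mem _ (fun h => h.2 hx)]
    · refine Equiv.ext fun x => Subtype.ext ?_
      show (g : Equiv.Perm GolayPt) x.1 = τ x
      rw [hg' x.1 x.2.1, hσ, Equiv.Perm.ofSubtype_apply_coe]

/-- The moving part has `8 - |X|` points. -/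
theorem card_rest (ho : o ∈ octads) (hXo : X ⊆ o) : Fintype.card (Rest X o) = 8 - X.card := by
  rw [Fintype.card_of_subtype (o \ X) (fun x => by simp), Finset.card_sdiff_of_subset hXo, ho.2]

/-- The kernel has sixteen elements. -/
theorem card_ker_rho (ho : o ∈ octads) (hXo : X ⊆ o) : Nat.card (rho X o).ker = 16 := by
  rw [← card_fixM24 ho]
  exact Nat.card_congr
    { toFun := fun g => ⟨g.1.1.1, mem_ker_rho.1 g.2⟩
      invFun := fun g => ⟨⟨⟨g.1, mem_fixM24.2 ⟨(mem_fixM24.1 g.2).1,
        fun x hx => (mem_fixM24.1 g.2).2 x (hXo hx)⟩⟩, smul_eq_of_mem_fixM24 g.2⟩,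
        mem_ker_rho.2 g.2⟩
      left_inv := fun _ => rfl
      right_inv := fun _ => rfl }

/-- The order of the stabiliser. -/
theorem card_stabilizer (ho : o ∈ octads) (hXo : X ⊆ o) :
    Nat.card (stabilizer (fixSub X) o) = 16 * Nat.card (alternatingGroup (Rest X o)) := by
  rw [← (rho X o).ker.card_mul_index, Subgroup.index_ker, range_rho ho hXo, card_ker_rho ho hXo]

/-- The orders of the even permutation groups involved. -/
theorem card_alt_rest (ho : o ∈ octads) (hXo : X ⊆ o) :
    2 ≤ 8 - X.card → Nat.card (alternatingGroup (Rest X o)) = (8 - X.card).factorial / 2 := by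
  intro h
  haveI : Nontrivial (Rest X o) := Fintype.one_lt_card_iff_nontrivial.1 (by rw [card_rest ho hXo]; omega)
  rw [nat_card_alternatingGroup, Nat.card_eq_fintype_card, card_rest ho hXo]

/-- Some octad misses a given one. -/
theorem exists_disjoint_octad (ho : o ∈ octads) : ∃ o' ∈ octads, Disjoint o' o := by
  obtain ⟨g, hg, rfl⟩ := exists_smul_octad0 ho
  obtain ⟨m, hm, hdis⟩ : ∃ m ∈ octadMasks, m &&& octad0 = 0 := by
    have : (octadMasks.any fun m => m &&& octad0 == 0) = true := by decide +kernel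
    obtain ⟨m, hm, h⟩ := List.any_eq_true.1 this
    exact ⟨m, hm, beq_iff_eq.1 h⟩
  refine ⟨g • fin m, smul_mem_octads hg (mem_octads_iff.2 ⟨m, hm, rfl⟩), ?_⟩
  rw [Finset.disjoint_left]
  intro x hx hx'
  obtain ⟨y, hy, rfl⟩ := Finset.mem_smul_finset.1 hx
  rw [Finset.smul_mem_smul_finset_iff] at hx'
  rw [mem_fin] at hy hx'
  have := congrArg (fun k : ℕ => k.testBit (idx y)) hdis
  simp [Nat.testBit_and, hy, hx'] at this

/-- An element of the octad stabiliser commuting with the pointwise stabiliser lies in it. -/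
theorem mem_fixM24_of_commute (ho : o ∈ octads) {k : Equiv.Perm GolayPt} (hk : k ∈ M24)
    (hko : k • o = o) (hc : ∀ a ∈ fixM24 o, k * a = a * k) : k ∈ fixM24 o := by
  obtain ⟨o', ho', hdis⟩ := exists_disjoint_octad ho
  have hsdiff : ((Finset.univ \ o) \ o').Nonempty := by
    have h1 := Finset.card_sdiff_of_subset (Finset.subset_univ o)
    have h2 := Finset.le_card_sdiff o' (Finset.univ \ o)
    rw [ho.2, Finset.card_univ] at h1
    have h3 : Fintype.card GolayPt = 24 := by simp [GolayPt]
    have h4 := ho'.2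
    rw [← Finset.card_pos]
    omega
  obtain ⟨p, hp⟩ := hsdiff
  simp only [Finset.mem_sdiff, Finset.mem_univ, true_and] at hp
  have hkp : k p ∉ o := fun h => hp.1 ((apply_mem_iff_of_smul_eq hko p).1 h)
  obtain ⟨a, ha, hap⟩ := exists_fixM24_apply ho hp.1 hkp
  have hh : a⁻¹ * k = 1 := by
    have hfix : ∀ q, q ∉ o → (a⁻¹ * k) q = q := by
      intro q hq
      obtain ⟨b, hb, rfl⟩ := exists_fixM24_apply ho hp.1 hq
      have e : (a⁻¹ * k) * b = b * (a⁻¹ * k) := by
        have e1 : a * b = b * a := by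
          have hab := mul_self_of_mem_fixM24 ho ((fixM24 o).mul_mem ha hb)
          have ha' := mul_self_of_mem_fixM24 ho ha
          have hb' := mul_self_of_mem_fixM24 ho hb
          calc a * b = (a * b)⁻¹ := (inv_eq_of_mul_eq_one_right hab).symm
            _ = b⁻¹ * a⁻¹ := mul_inv_rev a b
            _ = b * a := by rw [inv_eq_of_mul_eq_one_right ha', inv_eq_of_mul_eq_one_right hb']
        calc a⁻¹ * k * b = a⁻¹ * (b * k) := by rw [mul_assoc, hc b hb]
          _ = b * (a⁻¹ * k) := by
            rw [← mul_assoc, ← mul_assoc,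
              show a⁻¹ * b = b * a⁻¹ from (Commute.inv_left (show Commute a b from e1)).eq]
      have e0 : (a⁻¹ * k) p = p := by
        rw [Equiv.Perm.mul_apply, Equiv.Perm.inv_eq_iff_eq, hap]
      rw [← Equiv.Perm.mul_apply, e, Equiv.Perm.mul_apply, e0]
    refine eq_one_of_mem_fixM24 ho' (mem_fixM24.2 ⟨mul_mem (inv_mem (mem_fixM24.1 ha).1) hk,
      fun x hx => hfix x (Finset.disjoint_left.1 hdis hx)⟩) hp.2 (hfix p hp.1)
  exact (inv_mul_eq_one.1 hh) ▸ ha

/-- No element of the pointwise stabiliser of an octad other than one commutes with the whole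
stabiliser of the octad fixing two of its points. -/
theorem eq_one_of_central (ho : o ∈ octads) {a b : GolayPt} (ha : a ∈ o) (hb : b ∈ o) (hab : a ≠ b)
    {t : Equiv.Perm GolayPt} (ht : t ∈ fixM24 o)
    (hc : ∀ k : stabilizer (fixSub {a, b}) o, (k.1 : Equiv.Perm GolayPt) * t = t * k.1) : t = 1 := by
  by_contra ht1
  have hXo : ({a, b} : Finset GolayPt) ⊆ o := by simp [Finset.insert_subset_iff, ha, hb]
  have hX2 : ({a, b} : Finset GolayPt).card = 2 := Finset.card_pair hab
  obtain ⟨p, hp⟩ : ∃ p, p ∉ o := by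
    by_contra h
    push Not at h
    have := Finset.card_le_card (fun x _ => h x : Finset.univ ⊆ o)
    rw [ho.2] at this
    simp [GolayPt] at this
  set q := t p with hq
  have hqo : q ∉ o := fun h => hp ((apply_mem_iff_of_smul_eq (smul_eq_of_mem_fixM24 ht) p).1 h)
  have hqp : q ≠ p := fun h => ht1 (eq_one_of_mem_fixM24 ho ht hp h)
  set K := stabilizer (fixSub {a, b}) o with hK
  have hKcard : Nat.card K = 5760 := by
    rw [hK, card_stabilizer ho hXo, card_alt_rest ho hXo (by omega), hX2]
    rfl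
  have horb : orbit K p = {x | x ∉ o} := by
    ext x
    constructor
    · rintro ⟨k, rfl⟩
      exact fun h => hp ((apply_mem_iff_of_smul_eq
        (show (k.1 : Equiv.Perm GolayPt) • o = o from k.2) p).1 h)
    · intro hx
      obtain ⟨c, hcm, hcp⟩ := exists_fixM24_apply ho hp hx
      exact ⟨⟨⟨c, mem_fixM24.2 ⟨(mem_fixM24.1 hcm).1, fun y hy => (mem_fixM24.1 hcm).2 y (hXo hy)⟩⟩,
        smul_eq_of_mem_fixM24 hcm⟩, hcp⟩
  have hstab : Nat.card (stabilizer K p) = 360 := by
    have h := (stabilizer K p).card_mul_index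
    rw [index_stabilizer, horb, hKcard] at h
    have : ({x | x ∉ o} : Set GolayPt).ncard = 16 := by
      rw [show ({x | x ∉ o} : Set GolayPt) = ((oᶜ : Finset GolayPt) : Set GolayPt) by ext; simp,
        Set.ncard_coe_finset, Finset.card_compl, ho.2]
      simp [GolayPt]
    rw [this] at h
    omega
  have hne : ∀ {x y : GolayPt}, x ∈ o → y ∉ o → x ≠ y := fun hx hy h => hy (h ▸ hx)
  have hX4 : ({a, b, p, q} : Finset GolayPt).card = 4 := by
    rw [Finset.card_insert_of_notMem (by simp [hab, hne ha hp, hne ha hqo]),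
      Finset.card_insert_of_notMem (by simp [hne hb hp, hne hb hqo]), Finset.card_pair hqp.symm]
  have h4 := card_fixSub_mul (X := {a, b, p, q}) (by omega)
  rw [hX4] at h4
  have h960 : Nat.card (fixSub {a, b, p, q}) = 960 := by
    generalize Nat.card (fixSub {a, b, p, q}) = N at h4 ⊢
    norm_num [Nat.factorial_succ] at h4
    omega
  let f : stabilizer K p →* fixSub {a, b, p, q} :=
    { toFun := fun k => ⟨k.1.1.1, mem_fixM24.2 ⟨(mem_fixM24.1 k.1.1.2).1, fun x hx => by
        have hkp : (k.1.1 : Equiv.Perm GolayPt) p = p := k.2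
        simp only [Finset.mem_insert, Finset.mem_singleton] at hx
        rcases hx with rfl | rfl | rfl | rfl
        · exact fixes (by simp)
        · exact fixes (by simp)
        · exact hkp
        · have := congrArg (fun s : Equiv.Perm GolayPt => s p) (hc k.1)
          simp only [Equiv.Perm.mul_apply] at this
          rw [hkp] at this
          exact this⟩⟩
      map_one' := rfl
      map_mul' := fun _ _ => rfl }
  have hf : Function.Injective f := fun x y h => by
    exact Subtype.ext (Subtype.ext (Subtype.ext (congrArg Subtype.val h :)))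
  have := Subgroup.card_dvd_of_injective f hf
  rw [hstab, h960] at this
  norm_num at this

/-- The pointwise stabiliser of an octad has no proper non-trivial subgroup invariant under the
stabiliser of the octad fixing two of its points. -/
theorem eq_fixM24_of_invariant (ho : o ∈ octads) {a b : GolayPt} (ha : a ∈ o) (hb : b ∈ o)
    (hab : a ≠ b) {T : Subgroup (Equiv.Perm GolayPt)} (hT : T ≤ fixM24 o) (hT1 : T ≠ ⊥)
    (hinv : ∀ k : stabilizer (fixSub {a, b}) o, ∀ t ∈ T,
      (k.1 : Equiv.Perm GolayPt) * t * (k.1 : Equiv.Perm GolayPt)⁻¹ ∈ T) : T = fixM24 o := by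
  have hXo : ({a, b} : Finset GolayPt) ⊆ o := by simp [Finset.insert_subset_iff, ha, hb]
  have hX2 : ({a, b} : Finset GolayPt).card = 2 := Finset.card_pair hab
  by_contra hne
  set K := stabilizer (fixSub {a, b}) o with hK
  have hdvd : Nat.card T ∣ 16 := card_fixM24 ho ▸ Subgroup.card_dvd_of_le hT
  have hlt : Nat.card T < 16 := by
    refine lt_of_le_of_ne (Nat.le_of_dvd (by norm_num) hdvd) fun h => hne ?_
    exact Subgroup.eq_of_le_of_card_ge hT (by rw [card_fixM24 ho, h])
  -- the centraliser of `T` in `K`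
  let C : Subgroup K :=
    { carrier := {k | ∀ t ∈ T, (k.1 : Equiv.Perm GolayPt) * t = t * k.1}
      one_mem' := fun t _ => by simp
      mul_mem' := fun {x y} hx hy t ht => by
        show ((x.1 : Equiv.Perm GolayPt) * y.1) * t = t * ((x.1 : Equiv.Perm GolayPt) * y.1)
        rw [mul_assoc, hy t ht, ← mul_assoc, hx t ht, mul_assoc]
      inv_mem' := fun {x} hx t ht => by
        show (x.1 : Equiv.Perm GolayPt)⁻¹ * t = t * (x.1 : Equiv.Perm GolayPt)⁻¹
        exact (Commute.inv_left (show Commute (x.1 : Equiv.Perm GolayPt) t from hx t ht)).eq }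
  have hCn : C.Normal := ⟨fun x hx y t ht => by
    have h1 := hinv y⁻¹ t ht
    simp only [InvMemClass.coe_inv, inv_inv] at h1
    have h2 := hx _ h1
    show ((y.1 : Equiv.Perm GolayPt) * x.1 * (y.1 : Equiv.Perm GolayPt)⁻¹) * t =
      t * ((y.1 : Equiv.Perm GolayPt) * x.1 * (y.1 : Equiv.Perm GolayPt)⁻¹)
    calc _ = (y.1 : Equiv.Perm GolayPt) * ((x.1 : Equiv.Perm GolayPt) *
          ((y.1 : Equiv.Perm GolayPt)⁻¹ * t * y.1)) * (y.1 : Equiv.Perm GolayPt)⁻¹ := by group
      _ = (y.1 : Equiv.Perm GolayPt) * (((y.1 : Equiv.Perm GolayPt)⁻¹ * t * y.1) * x.1) *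
          (y.1 : Equiv.Perm GolayPt)⁻¹ := by rw [h2]
      _ = _ := by group⟩
  have hEC : (rho {a, b} o).ker ≤ C := fun k hk t ht => by
    have h1 := hT ht
    have h2 : (k.1 : Equiv.Perm GolayPt) ∈ fixM24 o := mem_ker_rho.1 hk
    have hkt := mul_self_of_mem_fixM24 ho ((fixM24 o).mul_mem h2 h1)
    calc (k.1 : Equiv.Perm GolayPt) * t = ((k.1 : Equiv.Perm GolayPt) * t)⁻¹ :=
          (inv_eq_of_mul_eq_one_right hkt).symm
      _ = t⁻¹ * (k.1 : Equiv.Perm GolayPt)⁻¹ := mul_inv_rev _ _
      _ = _ := by rw [inv_eq_of_mul_eq_one_right (mul_self_of_mem_fixM24 ho h1),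
          inv_eq_of_mul_eq_one_right (mul_self_of_mem_fixM24 ho h2)]
  -- elements of order five centralise `T`
  haveI : Fact (Nat.Prime 5) := ⟨by norm_num⟩
  have hKcard : Nat.card K = 5760 := by
    rw [hK, card_stabilizer ho hXo, card_alt_rest ho hXo (by omega), hX2]
    rfl
  obtain ⟨k, hk⟩ := exists_prime_orderOf_dvd_card' (G := K) 5 (by rw [hKcard]; norm_num)
  have hkC : k ∈ C := by
    let Z := Subgroup.zpowers k
    letI : MulAction Z T :=
      { smul := fun z t => ⟨(z.1.1 : Equiv.Perm GolayPt) * t * (z.1.1 : Equiv.Perm GolayPt)⁻¹,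
          hinv z.1 t t.2⟩
        one_smul := fun t => Subtype.ext (by
          show ((1 : Z).1.1 : Equiv.Perm GolayPt) * t * ((1 : Z).1.1 : Equiv.Perm GolayPt)⁻¹ = t
          simp)
        mul_smul := fun x y t => Subtype.ext (by
          show ((x * y).1.1 : Equiv.Perm GolayPt) * t * ((x * y).1.1 : Equiv.Perm GolayPt)⁻¹ =
            (x.1.1 : Equiv.Perm GolayPt) * ((y.1.1 : Equiv.Perm GolayPt) * t *
              (y.1.1 : Equiv.Perm GolayPt)⁻¹) * (x.1.1 : Equiv.Perm GolayPt)⁻¹
          simp [mul_assoc]) }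
    have hZ : IsPGroup 5 Z := IsPGroup.of_card (n := 1) (by rw [Nat.card_zpowers, hk, pow_one])
    have hmod := hZ.card_modEq_card_fixedPoints T
    let F : Subgroup (Equiv.Perm GolayPt) :=
      T ⊓ Subgroup.centralizer {(k.1 : Equiv.Perm GolayPt)}
    have hF : Nat.card (fixedPoints Z T) = Nat.card F := by
      refine Nat.card_congr
        { toFun := fun t => ⟨t.1.1, t.1.2, Subgroup.mem_centralizer_singleton_iff.2 ?_⟩
          invFun := fun t => ⟨⟨t.1, t.2.1⟩, ?_⟩
          left_inv := fun _ => rfl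
          right_inv := fun _ => rfl }
      · exact (mul_inv_eq_iff_eq_mul.1
          (congrArg Subtype.val (t.2 ⟨k, Subgroup.mem_zpowers k⟩))).symm
      · rintro ⟨z, j, rfl⟩
        refine Subtype.ext ?_
        have hcom : Commute (k.1 : Equiv.Perm GolayPt) t.1 :=
          (Subgroup.mem_centralizer_singleton_iff.1 t.2.2).symm
        show (((k ^ j : K).1) : Equiv.Perm GolayPt) * t.1 *
          (((k ^ j : K).1) : Equiv.Perm GolayPt)⁻¹ = t.1
        simp only [SubgroupClass.coe_zpow]
        exact mul_inv_eq_iff_eq_mul.2 (hcom.zpow_left j).eq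
    rw [hF] at hmod
    have hFd : Nat.card F ∣ Nat.card T := Subgroup.card_dvd_of_le inf_le_left
    have hFeq : Nat.card F = Nat.card T := by
      have hTpos : 0 < Nat.card T := Nat.card_pos
      have hFle := Nat.le_of_dvd hTpos hFd
      unfold Nat.ModEq at hmod
      generalize Nat.card T = m at *
      generalize Nat.card F = j at *
      interval_cases m <;> interval_cases j <;> omega
    intro t ht
    have hFT : T ≤ F := (Subgroup.eq_of_le_of_card_ge inf_le_left hFeq.ge).ge
    exact (Subgroup.mem_centralizer_singleton_iff.1 (hFT ht).2).symm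
  have hall : ∀ x, x ∈ C := by
    intro x
    let ρ' : K →* alternatingGroup (Rest {a, b} o) :=
      (rho {a, b} o).codRestrict _ fun y => (range_rho ho hXo).le ⟨y, rfl⟩
    have hsurj : Function.Surjective ρ' := fun y => by
      obtain ⟨z, hz⟩ : (y : Equiv.Perm _) ∈ (rho {a, b} o).range := (range_rho ho hXo).ge y.2
      exact ⟨z, Subtype.ext hz⟩
    haveI : IsSimpleGroup (alternatingGroup (Rest {a, b} o)) :=
      alternatingGroup.isSimpleGroup (by rw [Nat.card_eq_fintype_card, card_rest ho hXo, hX2]; decide)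
    have hnb : C.map ρ' ≠ ⊥ := by
      intro h
      have h1 : ρ' k = 1 := (Subgroup.mem_bot.1 (h ▸ Subgroup.mem_map_of_mem ρ' hkC))
      have h2 : k ∈ (rho {a, b} o).ker := congrArg Subtype.val h1
      have h3 := Subgroup.orderOf_dvd_natCard _ h2
      rw [hk, card_ker_rho ho hXo] at h3
      norm_num at h3
    have hmap := ((hCn.map ρ' hsurj).eq_bot_or_eq_top).resolve_left hnb
    obtain ⟨y, hy, hyx⟩ : ρ' x ∈ C.map ρ' := hmap ▸ Subgroup.mem_top _
    have h4 : y⁻¹ * x ∈ (rho {a, b} o).ker := by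
      rw [MonoidHom.mem_ker, map_mul, map_inv, inv_mul_eq_one]
      exact congrArg Subtype.val hyx
    simpa using C.mul_mem hy (hEC h4)
  refine hT1 ((Subgroup.eq_bot_iff_forall T).2 fun t ht => ?_)
  exact eq_one_of_central ho ha hb hab (hT ht) fun k => hall k t ht

end Cfsg.Agent.H80.MathieuLocal
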